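import Cfsg.Agent.BX.P17b.Iso
import Cfsg.Agent.BX.P17b.Cov9
import Cfsg.Agent.BX.Frame.Fr3
set_option linter.all false

/-!
# `PGL₂(17)` in the Baby Monster: the test at 9 (helper18)
-/

set_option autoImplicit false
set_option maxRecDepth 100000
set_option Elab.async false

namespace Cfsg.Agent.BX.P17b

open Cfsg.Agent.BabyM.Conc Cfsg.Agent.H819.U33 Cfsg.Agent.BMx.Fast Cfsg.Agent.BX.Max Subgroup
open Cfsg.Agent.BX.Cov Cfsg.Agent.BX.Frame.Fr3 Cfsg.Agent.BX.Five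
open Cfsg.Agent.H863.U33 (wy1)

/-- an element of order 18 -/
def wY : List Ltr :=
  [.Z8, .Z7, .Z5, .Z4, .X9, .X8, .X6, .X4, .X3, .X2, .X1, .X0, .y9, .y6, .p10, .hi, .p8, .hi, .p9, .hi, .p4, .hi, .p4,
   .hi, .p7, .xii, .p, .xii, .y3, .y4, .tau, .y1, .xii, .p10, .xii, .y1, .y7, .p10, .tau, .X0, .p5, .xii, .y6, .p,
   .xii, .y1, .taui, .xii, .p5, .xii, .y7, .hi, .p5, .y1, .taui, .xii, .hi, .p7]

/-- an involution which inverts it -/
def wT : List Ltr :=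
  [.Z6, .Z5, .Z4, .Z2, .Z1, .Z0, .X10, .X9, .X8, .X6, .X5, .X4, .X2, .X1, .y9, .y7, .y6, .y4, .y3, .y1, .p3, .hi, .p9,
   .hi, .p, .hi, .p4, .hi, .p, .hi, .p10, .xii, .p10, .hi, .p2, .hi, .p10, .tau, .xii, .y6, .p, .xii, .y2, .p, .xii,
   .y3, .taui, .p8, .xii, .p, .xii, .hi, .p3, .y8, .y10, .tau, .xii, .p5, .xii, .y3, .y5, .p5, .xii, .tau, .xii, .y6,
   .hi, .p10]

/-- `wY` in the generators of the frame -/
def dY : List (Fin 18 × ℕ) :=
  [(2, 1), (3, 2), (6, 2), (7, 2), (15, 1), (14, 1), (16, 1), (15, 1), (17, 1), (15, 1), (17, 3), (16, 2)]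

/-- `wT` in the generators of the frame -/
def dT : List (Fin 18 × ℕ) :=
  [(2, 1), (5, 2), (7, 1), (17, 1), (16, 1), (13, 1), (15, 1), (17, 1), (16, 1), (15, 1), (16, 1), (17, 1)]

/-- a test with its certificate -/
def ct0 : List (Fin 18 × ℕ) × Ct :=
  ([(2, 1), (3, 1), (4, 2), (5, 1)], [0, 2, 1], [.Z9, .Z6, .Z5, .Z3, .Z2, .Z1, .Z0, .X8, .X5, .X4, .y8, .y5, .y2, .y1,
   .p5, .hi, .p7, .hi, .p5, .hi, .p, .hi, .p4, .hi, .p2, .xii, .hi, .p8, .xii, .taui, .xii, .y2, .p, .xii, .y3, .y10,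
   .hi, .xii, .y5, .tau, .X0, .y1, .hi, .xii, .p3, .hi, .p5, .xii, .p, .tau, .xii, .p3, .xii, .y2, .p, .xii, .y1,
   .tau, .xii, .p4, .xii], false)

/-- a test with its certificate -/
def ct1 : List (Fin 18 × ℕ) × Ct :=
  ([(0, 2), (1, 2), (3, 1), (5, 1), (15, 1), (13, 1), (17, 1), (15, 1), (17, 1), (15, 1), (17, 1), (15, 1), (17, 1),
   (15, 1), (16, 1)], [0, 1, 1, 2], [.Z10, .Z8, .Z6, .Z2, .Z1, .X10, .X9, .X8, .X7, .X5, .X2, .y10, .y8, .y7, .y5,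
   .y3, .y2, .p3, .hi, .p7, .hi, .p5, .xii, .y2, .p, .xii, .y6, .hi, .p8, .tau, .xii, .p, .xii, .hi, .y8, .xii, .y2,
   .y7, .y10, .tau, .p10, .xii, .y6, .p8, .xii, .p10, .tau, .xii, .y2, .p8, .xii, .y1, .p2, .xii, .y8, .tau, .xii,
   .p3, .hi], true)

/-- a test with its certificate -/
def ct2 : List (Fin 18 × ℕ) × Ct :=
  ([(0, 1), (2, 1), (3, 1), (4, 1), (5, 2)], [0, 1, 3], [.z, .Z7, .Z6, .Z5, .Z4, .Z3, .Z2, .X7, .X3, .X0, .y8, .y7,
   .y4, .y3, .p2, .hi, .p10, .hi, .p9, .hi, .p4, .xii, .p10, .xii, .p9, .xii, .y1, .y9, .taui, .y1, .xii, .p10, .xii,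
   .y2, .p10, .xii, .y2, .y10, .taui, .X0, .p4, .xii, .p7, .xii, .y1, .p, .hi, .p5, .y5, .taui, .xii, .p7, .xii, .y4,
   .p9, .y8, .xii, .taui, .xii, .hi], false)

/-- a test with its certificate -/
def ct3 : List (Fin 18 × ℕ) × Ct :=
  ([(0, 1), (1, 1), (2, 1), (3, 1), (5, 1), (7, 1), (17, 1), (15, 1), (17, 1), (16, 2), (15, 1), (12, 1), (16, 1)],
   [0, 4, 0, 4, 1], [.Z9, .Z7, .Z4, .Z2, .Z0, .X10, .X2, .X1, .X0, .y9, .y8, .y5, .y3, .hi, .p5, .hi, .p7, .hi, .p9,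
   .hi, .p10, .hi, .p2, .hi, .xii, .hi, .p8, .tau, .xii, .p, .xii, .y1, .hi, .xii, .y6, .y10, .taui, .X0, .p4, .xii,
   .p4, .xii, .hi, .p6, .y6, .hi, .taui, .xii, .p9, .xii, .y9, .p3, .xii, .y2, .y3, .taui, .xii, .y4, .p10, .xii],
   false)

/-- a test with its certificate -/
def ct4 : List (Fin 18 × ℕ) × Ct :=
  ([(0, 1), (1, 2), (3, 2), (6, 1), (15, 1), (17, 2), (16, 3), (17, 1), (11, 1), (17, 2), (15, 1), (17, 1)], [0, 1, 0,
   2, 4], [.Z9, .Z7, .Z6, .Z4, .Z3, .Z2, .Z0, .X5, .X4, .X0, .y8, .y7, .y4, .y3, .p9, .hi, .p7, .hi, .p6, .hi, .p6,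
   .hi, .p10, .hi, .p3, .xii, .hi, .xii, .y8, .p9, .xii, .y7, .tau, .xii, .y1, .p, .xii, .p, .xii, .y1, .y4, .tau,
   .X0, .y1, .hi, .xii, .p2, .xii, .y7, .p8, .tau, .xii, .p2, .xii, .y3, .p6, .xii, .y8, .tau, .xii, .y7, .p9], true)

/-- a test with its certificate -/
def ct5 : List (Fin 18 × ℕ) × Ct :=
  ([(17, 1), (15, 1), (17, 1), (15, 2), (17, 3), (11, 1), (16, 1), (15, 1)], [0, 1, 1, 0, 4, 3], [.z, .Z9, .Z4, .Z2,
   .Z0, .X7, .X5, .X3, .y9, .y7, .y6, .y5, .y4, .y3, .p4, .hi, .p4, .hi, .p3, .hi, .p3, .hi, .p10, .hi, .xii, .p10,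
   .xii, .y7, .p8, .xii, .y4, .taui, .xii, .p, .xii, .y1, .hi, .xii, .y1, .y9, .tau, .xii, .p5, .xii, .p, .xii, .y1,
   .y7, .p, .taui, .xii, .p6, .xii, .y4, .hi, .xii, .y5, .tau], false)

theorem ct0_ok : allT wgen3 [wu, wh, ww, wh4] [ct0] = true := by decide +kernel

theorem ct1_ok : allT wgen3 [wu, wh, ww, wh4] [ct1] = true := by decide +kernel

theorem ct2_ok : allT wgen3 [wu, wh, ww, wh4] [ct2] = true := by decide +kernel

theorem ct3_ok : allT wgen3 [wu, wh, ww, wh4] [ct3] = true := by decide +kernel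

theorem ct4_ok : allT wgen3 [wu, wh, ww, wh4] [ct4] = true := by decide +kernel

theorem ct5_ok : allT wgen3 [wu, wh, ww, wh4] [ct5] = true := by decide +kernel

theorem dY_eq : ev gen3 dY = g wY := (g_fl wgen3 dY).symm.trans (eq_of_eqF (by decide +kernel))

theorem dT_eq : ev gen3 dT = g wT := (g_fl wgen3 dT).symm.trans (eq_of_eqF (by decide +kernel))

theorem Y_mem : g wY ∈ HH :=
  (eq_of_eqF (by decide +kernel) : g (cat [wu, wh, ww, wh4] [3, 0, 2, 3, 0, 2, 1, 3]) = g wY) ▸ cat_mem hs_mem _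

theorem T_mem : g wT ∈ HH :=
  (eq_of_eqF (by decide +kernel) : g (cat [wu, wh, ww, wh4] [0, 0, 0, 2, 0, 0, 1, 3, 2]) = g wT) ▸ cat_mem hs_mem _

theorem Y_six : g wY ^ 6 * g wy1 = 1 := by
  rw [← g_pw, ← g_append, ← g_nil]
  exact eq_of_eqF (by decide +kernel)

theorem YTY : g wY * g wT * g wY = g wT := by
  rw [← g_append, ← g_append]
  exact eq_of_eqF (by decide +kernel)

theorem tests9 (h47 : Gen47 G) : ∀ w ∈ Cov9.tw, Tst HH (ev gen3 w) := by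
  have k : ∀ {c : List (Fin 18 × ℕ) × Ct}, allT wgen3 [wu, wh, ww, wh4] [c] = true → Tst HH (ev gen3 c.1) :=
    fun h => tst_all (big h47) hs_mem h _ List.mem_cons_self
  intro w hw
  have hw' : w ∈ [ct0.1, ct1.1, ct2.1, ct3.1, ct4.1, ct5.1] := hw
  simp only [List.mem_cons, List.not_mem_nil, or_false] at hw'
  rcases hw' with rfl | rfl | rfl | rfl | rfl | rfl
  exacts [k ct0_ok, k ct1_ok, k ct2_ok, k ct3_ok, k ct4_ok, k ct5_ok]

theorem norm_cyc {K : Type*} [Group K] [Finite K] {x s : K} (h : s * x * s⁻¹ ∈ zpowers x) :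
    s ∈ normalizer ((zpowers x : Subgroup K) : Set K) := by
  refine mem_normalizer_fintype ?_
  rintro _ ⟨n, rfl⟩
  have h1 := zpow_mem h n
  rwa [conj_zpow] at h1

theorem norm_pow {K : Type*} [Group K] [Finite K] (x : K) (n : ℕ) :
    normalizer ((zpowers x : Subgroup K) : Set K) ≤ normalizer ((zpowers (x ^ n) : Subgroup K) : Set K) := by
  intro s hs
  obtain ⟨k, hk⟩ := (mem_normalizer_iff.1 hs x).1 (mem_zpowers x)
  refine norm_cyc ⟨k, ?_⟩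
  have hk' : x ^ k = s * x * s⁻¹ := hk
  show (x ^ n) ^ k = _
  rw [← conj_pow, ← hk', ← zpow_natCast, ← zpow_natCast, ← zpow_mul, ← zpow_mul, mul_comm]

theorem y_eq : (g wY ^ 2) ^ 3 = (g wy1)⁻¹ := by
  rw [← pow_mul]
  exact eq_inv_of_mul_eq_one_left Y_six

theorem z_eq : zpowers ((g wY ^ 2) ^ 3) = zpowers (g wy1) := by rw [y_eq, zpowers_inv]

theorem o_x : orderOf (g wY ^ 2) = 9 := by
  have : Fact (Nat.Prime 3) := ⟨Nat.prime_three⟩
  have h3 : g wy1 ^ 3 = 1 := order3 ▸ pow_orderOf_eq_one _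
  refine orderOf_eq_prime_pow (p := 3) (n := 1) ?_ ?_
  · rw [pow_one, y_eq, inv_eq_one]
    intro h
    have h1 := order3
    rw [h, orderOf_one] at h1
    omega
  · rw [pow_succ 3 1, pow_mul, pow_one, y_eq, inv_pow, h3, inv_one]

theorem A_eq : gp gen3 Cov9.aw ⊔ zpowers (g wy1) = zpowers (g wY ^ 2) := by
  have e : ev gen3 (dY ++ dY) = g wY ^ 2 := by rw [ev_append, dY_eq, pow_two]
  refine le_antisymm (sup_le (gp_le fun w hw => ?_) ?_) (le_sup_of_le_left (zpowers_le.2 ?_))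
  · have hw' : w ∈ [dY ++ dY] := hw
    rw [List.mem_singleton.1 hw', e]
    exact mem_zpowers _
  · rw [← z_eq, zpowers_le]
    exact pow_mem (mem_zpowers _) 3
  · exact e ▸ Frame.ev_mem_gp gen3 (show dY ++ dY ∈ [dY ++ dY] from List.mem_cons_self)

theorem y1_mem : g wy1 ∈ HH := by
  have h := inv_mem (pow_mem (pow_mem Y_mem 2) 3)
  rwa [y_eq, inv_inv] at h

theorem dw_cases {P : G → Prop} (h1 : P (g wY)) (h2 : P (g wT)) : ∀ w ∈ Cov9.dw, P (ev gen3 w) := by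
  intro w hw
  have hw' : w ∈ [dY, dT] := hw
  simp only [List.mem_cons, List.not_mem_nil, or_false] at hw'
  rcases hw' with rfl | rfl
  · exact dY_eq ▸ h1
  · exact dT_eq ▸ h2

/-- **The test at 9.** -/
theorem nt9 (h47 : Gen47 G) (h3 : H3) : NT HH 9 := by
  have : Finite G := finG
  refine ⟨zpowers (g wY ^ 2), zpowers_le.2 (pow_mem Y_mem 2), by rw [Nat.card_zpowers, o_x], fun X hX hT => ?_⟩
  have hd : ∀ w ∈ Cov9.dw, ev gen3 w ∈ HH := dw_cases (P := fun a => a ∈ HH) Y_mem T_mem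
  have h1 := test (frame3 h3) Cov9.cover (by rw [A_eq, ← z_eq]; exact norm_pow _ 3)
    (by
      rw [A_eq]
      refine dw_cases (P := fun a => a ∈ normalizer ((zpowers (g wY ^ 2) : Subgroup G) : Set G)) (norm_cyc ?_) (norm_cyc ?_)
      · rw [show g wY * g wY ^ 2 * (g wY)⁻¹ = g wY ^ 2 by group]
        exact mem_zpowers _
      · have h2 : g wT * g wY * (g wT)⁻¹ = (g wY)⁻¹ := by
          refine eq_inv_of_mul_eq_one_right ?_
          rw [← mul_assoc, ← mul_assoc, YTY, mul_inv_cancel]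
        rw [← conj_pow, h2, inv_pow]
        exact inv_mem (mem_zpowers _))
    (le_normalizer (mem_sup_right (mem_zpowers _))) (hX y1_mem) (fun w hw => hX (hd w hw))
    fun w hw => tests9 h47 w hw X hX hT
  rw [A_eq] at h1
  exact h1.trans (sup_le (gp_le hd) (zpowers_le.2 y1_mem))

/-- **`PGL₂(17)` with its two tests.** -/
theorem ex (L : Loc G) (h47 : Gen47 G) (h3 : H3) : Ex17 G := ex_of L h47 (nt9 h47 h3)

end Cfsg.Agent.BX.P17b
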