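import Cfsg.Agent.BX.P17b.Rel
import Cfsg.Agent.BX.Iso.Facts2
set_option linter.all false

/-!
# `PGL₂(17)` in the Baby Monster: the isomorphism (helper5)
-/

set_option autoImplicit false

namespace Cfsg.Agent.BX.P17b

open Cfsg.Agent.H819.U33 Cfsg.Agent.BX.Max Subgroup

theorem rel1 : Iso.R1 17 16 3 (g wu) (g wh) (g ww) := ⟨u_pow, h_pow, h_u', w_two, w_h, u_w⟩

theorem iso : Nonempty (HH ≃* T17) := Iso.iso17 rel1 u_ne

/-- everything but the test at 9 -/
theorem ex_of (L : Loc G) (h47 : Gen47 G) (n9 : NT HH 9) : Ex17 G := ⟨HH, iso, nt17 L h47, n9⟩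

end Cfsg.Agent.BX.P17b
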